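import Cfsg.Agent.FGS4.SchurSylow.TwoM23
import Cfsg.Agent.LocalEven.Gaschutz
import Mathlib.Data.Nat.Bitwise
import Mathlib.Algebra.Group.TypeTags.Basic

/-!
# Linear certificates for central extensions with kernel of exponent two

Lifts of group elements satisfy relations up to central elements; closed loops of rewriting give
linear equations between these elements, and a certificate bounds what remains free.
-/

set_option autoImplicit false
set_option linter.unusedSectionVars false

namespace Cfsg.Agent.FGS4.CentralExt

open scoped Pointwise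

universe u v

/-- The sum of selected masks. -/
def xorSel : List (ℕ × ℕ) → ℕ → ℕ
  | [], _ => 0
  | x :: xs, s => (if s % 2 == 1 then x.1 else 0) ^^^ xorSel xs (s / 2)

/-- One rewriting step at a position. -/
def step (rules : List (List ℕ × List ℕ)) (st : ℕ × List ℕ) (s : ℕ × ℕ × Bool) :
    Option (ℕ × List ℕ) :=
  match rules[s.2.1]? with
  | none => none
  | some (a, b) =>
    let l := if s.2.2 then b else a
    let r := if s.2.2 then a else b
    let rest := st.2.drop s.1
    if rest.take l.length == l then
      some (st.1 ^^^ 2 ^ s.2.1, st.2.take s.1 ++ r ++ rest.drop l.length)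
    else none

/-- A sequence of steps. -/
def run (rules : List (List ℕ × List ℕ)) :
    ℕ × List ℕ → List (ℕ × ℕ × Bool) → Option (ℕ × List ℕ)
  | st, [] => some st
  | st, s :: ss => match step rules st s with
    | none => none
    | some st' => run rules st' ss

/-- A closed loop: a word and two ways of rewriting it. -/
abbrev Loop : Type := List ℕ × List (ℕ × ℕ × Bool) × List (ℕ × ℕ × Bool)

/-- The form of a loop, checked. -/
def loopOK (rules : List (List ℕ × List ℕ)) (L : Loop) (form : ℕ) : Bool :=
  match run rules (0, L.1) L.2.1, run rules (0, L.1) L.2.2 with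
  | some (a, w), some (b, w') => w == w' && a ^^^ b == form
  | _, _ => false

/-- A certificate: the rules numbered below `m * (m + 1) / 2` present the first `m` letters. -/
structure Cert where
  /-- relations between the letters -/
  rules : List (List ℕ × List ℕ)
  /-- loops with their forms -/
  loops : List (Loop × ℕ)
  /-- the change of lifts -/
  R : List ℕ
  /-- an extra form assumed to vanish -/
  lam₁ : ℕ
  /-- a second extra form assumed to vanish -/
  lam₂ : ℕ
  /-- the forms used in the elimination, each with the index of a loop giving it -/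
  basis : List (ℕ × ℕ)
  /-- the selection for each of the first rules -/
  sels : List ℕ

/-- The change of a word under a change of lifts. -/
def gauge (R : List ℕ) : List ℕ → ℕ
  | [] => 0
  | x :: w => R.getD x 0 ^^^ gauge R w

/-- The loops are checked. -/
def Cert.loopsOK (C : Cert) : Bool := C.loops.all fun L => loopOK C.rules L.1 L.2

/-- The forms used in the elimination are forms of loops or extra forms. -/
def Cert.basisOK (C : Cert) : Bool :=
  C.basis.all fun x => (x.1 == C.lam₁ || x.1 == C.lam₂) || match C.loops[x.2]? with
    | none => false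
    | some L => L.2 == x.1

/-- The first `N` rules are among the first `m` letters and of triangular shape. -/
def Cert.shapeOK (C : Cert) (m N : ℕ) : Bool :=
  ((List.range N).all fun r => match C.rules[r]? with
    | none => false
    | some (a, b) => (a ++ b).all fun x => decide (x < m)) &&
  ((List.range m).all fun i => ((List.range N).any fun r => C.rules[r]? == some ([i, i], [])) &&
    (List.range m).all fun j => decide (j ≤ i) || (List.range N).any fun r =>
      match C.rules[r]? with
      | none => false
      | some (a, b) => a == [j, i] && b.head? == some i && b.tail.all fun x => decide (i < x))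

/-- The change of lifts removes all the relation elements of the first `N` rules. -/
def Cert.targetOK (C : Cert) (N : ℕ) : Bool :=
  (List.range N).all fun r => match C.rules[r]? with
    | none => false
    | some (a, b) => gauge C.R a ^^^ gauge C.R b ^^^ 2 ^ r == xorSel C.basis (C.sels.getD r 0)

/-- The product of a word. -/
def wp {M : Type*} [Monoid M] (L : ℕ → M) (w : List ℕ) : M := (w.map L).prod

theorem wp_append {M : Type*} [Monoid M] (L : ℕ → M) (a b : List ℕ) :
    wp L (a ++ b) = wp L a * wp L b := by simp [wp, List.map_append]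

variable {E : Type u} [Group E] {G : Type v} [Group G] {π : E →* G} {γ : ℕ → G} {L : ℕ → E}
variable {C : Cert}

theorem pi_wp (hL : ∀ l, π (L l) = γ l) (w : List ℕ) : π (wp L w) = wp γ w := by
  rw [wp, map_list_prod, List.map_map]
  exact congrArg List.prod (List.map_congr_left fun l _ => hL l)

variable (L C) in
/-- The element measuring a rule. -/
def rel (r : ℕ) : E := wp L (C.rules.getD r ([], [])).1 * (wp L (C.rules.getD r ([], [])).2)⁻¹

variable (L C) in
/-- The product of the elements of a mask. -/
def val (m : ℕ) : E :=
  ((List.range C.rules.length).map fun i => if m.testBit i then rel L C i else 1).prod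

/-- The standing hypotheses. -/
structure Hyp (π : E →* G) (γ : ℕ → G) (L : ℕ → E) (C : Cert) : Prop where
  lift : ∀ l, π (L l) = γ l
  rule : ∀ ab ∈ C.rules, wp γ ab.1 = wp γ ab.2
  central : π.ker ≤ Subgroup.center E
  expo : ∀ a ∈ π.ker, a * a = 1

variable (h : Hyp π γ L C)
include h

theorem Hyp.comm {a : E} (ha : a ∈ π.ker) (b : E) : b * a = a * b :=
  Subgroup.mem_center_iff.1 (h.central ha) b

theorem Hyp.rel_mem (r : ℕ) : rel L C r ∈ π.ker := by
  rw [MonoidHom.mem_ker, rel, map_mul, map_inv, pi_wp h.lift, pi_wp h.lift, mul_inv_eq_one]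
  by_cases hr : r < C.rules.length
  · refine h.rule _ ?_
    rw [List.getD_eq_getElem _ _ hr]
    exact List.getElem_mem _
  · rw [List.getD_eq_default _ _ (not_lt.1 hr)]

theorem Hyp.val_mem (m : ℕ) : val L C m ∈ π.ker := by
  refine Subgroup.list_prod_mem _ fun x hx => ?_
  obtain ⟨i, -, rfl⟩ := List.mem_map.1 hx
  split
  · exact h.rel_mem i
  · exact one_mem _

theorem Hyp.val_xor (a b : ℕ) : val L C (a ^^^ b) = val L C a * val L C b := by
  rw [val, val, val]
  induction List.range C.rules.length with
  | nil => simp
  | cons i l ih =>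
    simp only [List.map_cons, List.prod_cons]
    rw [ih, Nat.testBit_xor]
    have hz : ∀ c : Bool, (if c then rel L C i else 1) ∈ π.ker := fun c => by
      cases c
      · exact one_mem _
      · exact h.rel_mem i
    set P := ((l.map fun i => if a.testBit i then rel L C i else 1)).prod
    set Q := ((l.map fun i => if b.testBit i then rel L C i else 1)).prod
    have e : ∀ x y : E, y ∈ π.ker → x * P * (y * Q) = x * y * (P * Q) := fun x y hy => by
      rw [mul_assoc, ← mul_assoc P y, h.comm hy P, mul_assoc, mul_assoc x y]
    rw [e _ _ (hz _)]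
    congr 1
    cases a.testBit i <;> cases b.testBit i <;> simp [h.expo _ (h.rel_mem i)]

theorem Hyp.val_zero : val L C 0 = 1 := by
  have := h.val_xor 0 0
  rw [Nat.xor_self] at this
  exact left_eq_mul.1 this

theorem Hyp.val_pow {r : ℕ} (hr : r < C.rules.length) : val L C (2 ^ r) = rel L C r := by
  have key : ∀ n, ((List.range n).map fun i => if (2 ^ r).testBit i then rel L C i else 1).prod =
      if r < n then rel L C r else 1 := by
    intro n
    induction n with
    | zero => simp
    | succ n ih =>
      rw [List.range_succ, List.map_append, List.prod_append, ih]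
      simp only [List.map_cons, List.map_nil, List.prod_cons, List.prod_nil, mul_one,
        Nat.testBit_two_pow]
      rcases lt_trichotomy r n with hlt | rfl | hgt
      · simp [hlt, hlt.ne, Nat.lt_succ_of_lt hlt]
      · simp
      · simp [hgt.ne', not_lt.2 hgt.le, not_lt.2 (Nat.succ_le_of_lt hgt)]
  rw [val, key, if_pos hr]

theorem Hyp.val_sel : ∀ (l : List (ℕ × ℕ)) (s : ℕ), (∀ x ∈ l, val L C x.1 = 1) →
    val L C (xorSel l s) = 1
  | [], s, _ => by rw [xorSel, h.val_zero]
  | x :: xs, s, hx => by
    rw [xorSel, h.val_xor, Hyp.val_sel xs _ fun y hy => hx y (List.mem_cons_of_mem _ hy), mul_one]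
    split
    · exact hx x (List.mem_cons_self ..)
    · exact h.val_zero

omit h in
/-- The invariant of rewriting. -/
def Inv (L : ℕ → E) (C : Cert) (w0 : List ℕ) (st : ℕ × List ℕ) : Prop :=
  wp L w0 = val L C st.1 * wp L st.2

theorem Hyp.step_inv {w0 : List ℕ} {st st' : ℕ × List ℕ} {s : ℕ × ℕ × Bool}
    (hst : Inv L C w0 st) (hs : step C.rules st s = some st') : Inv L C w0 st' := by
  unfold step at hs
  split at hs
  · exact absurd hs (by simp)
  · rename_i a b hr
    simp only [Option.ite_none_right_eq_some, Option.some.injEq, beq_iff_eq] at hs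
    obtain ⟨htake, rfl⟩ := hs
    obtain ⟨hlt, he⟩ := List.getElem?_eq_some_iff.1 hr
    have hrel : rel L C s.2.1 = wp L a * (wp L b)⁻¹ := by
      rw [rel, List.getD_eq_getElem _ _ hlt, he]
    set l := if s.2.2 then b else a with hl
    set r := if s.2.2 then a else b with hr'
    have hlr : wp L l = rel L C s.2.1 * wp L r := by
      rcases hb : s.2.2 with _ | _
      · simp only [hl, hr', hb, Bool.false_eq_true, if_false, hrel, inv_mul_cancel_right]
      · have h2 := h.expo _ (h.rel_mem s.2.1)
        simp only [hl, hr', hb, if_true]
        calc wp L b = (rel L C s.2.1)⁻¹ * wp L a := by rw [hrel]; group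
          _ = _ := by rw [inv_eq_of_mul_eq_one_left h2]
    have hsplit : st.2 = st.2.take s.1 ++ l ++ (st.2.drop s.1).drop l.length := by
      conv_lhs => rw [← List.take_append_drop s.1 st.2,
        ← List.take_append_drop l.length (st.2.drop s.1), htake]
      rw [List.append_assoc]
    unfold Inv at hst ⊢
    rw [hst, h.val_xor, h.val_pow hlt]
    conv_lhs => rw [hsplit]
    simp only [wp_append, hlr, mul_assoc]
    congr 1
    rw [← mul_assoc (wp L (List.take s.1 st.2)), h.comm (h.rel_mem _), mul_assoc]

theorem Hyp.run_inv {w0 : List ℕ} : ∀ (ss : List (ℕ × ℕ × Bool)) (st st' : ℕ × List ℕ),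
    Inv L C w0 st → run C.rules st ss = some st' → Inv L C w0 st'
  | [], st, st', hi, e => by simp only [run, Option.some.injEq] at e; exact e ▸ hi
  | s :: ss, st, st', hi, e => by
    rw [run] at e
    split at e
    · exact absurd e (by simp)
    · rename_i st1 h1
      exact Hyp.run_inv ss st1 st' (h.step_inv hi h1) e

theorem Hyp.loop_one {P : Loop} {form : ℕ} (hP : loopOK C.rules P form = true) :
    val L C form = 1 := by
  unfold loopOK at hP
  split at hP
  · rename_i a w b w' ha hb
    simp only [Bool.and_eq_true, beq_iff_eq] at hP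
    obtain ⟨rfl, rfl⟩ := hP
    have h0 : Inv L C P.1 (0, P.1) := by show _ = _; rw [h.val_zero, one_mul]
    have ia := h.run_inv _ _ _ h0 ha
    have ib := h.run_inv _ _ _ h0 hb
    have e : val L C a = val L C b := mul_right_cancel (ia.symm.trans ib)
    rw [h.val_xor, e, h.expo _ (h.val_mem b)]
  · exact absurd hP (by simp)

theorem Hyp.wp_gauge : ∀ w : List ℕ,
    wp (fun x => val L C (C.R.getD x 0) * L x) w = val L C (gauge C.R w) * wp L w
  | [] => by simp [wp, gauge, h.val_zero]
  | x :: w => by
    have ih := Hyp.wp_gauge w
    simp only [wp, List.map_cons, List.prod_cons] at ih ⊢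
    rw [ih, gauge, h.val_xor]
    calc val L C (C.R.getD x 0) * L x * (val L C (gauge C.R w) * (w.map L).prod)
        = val L C (C.R.getD x 0) * (L x * val L C (gauge C.R w)) * (w.map L).prod := by group
      _ = val L C (C.R.getD x 0) * (val L C (gauge C.R w) * L x) * (w.map L).prod := by
          rw [h.comm (h.val_mem _)]
      _ = _ := by group

/-- With the extra forms trivial, some lifts of the first `m` letters generate a group of order at
most `2 ^ m`. -/
theorem Hyp.exists_lifts [Finite E] (m N : ℕ) (h1 : C.loopsOK = true) (h2 : C.basisOK = true)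
    (h3 : C.shapeOK m N = true) (h4 : C.targetOK N = true)
    (hl1 : val L C C.lam₁ = 1) (hl2 : val L C C.lam₂ = 1) :
    ∃ L' : ℕ → E, (∀ l, π (L' l) = γ l) ∧
      Nat.card (Subgroup.closure (L' '' {l | l < m})) ≤ 2 ^ m := by
  let L' : ℕ → E := fun x => val L C (C.R.getD x 0) * L x
  have hL' : ∀ l, π (L' l) = γ l := fun l => by
    simp only [L', map_mul, MonoidHom.mem_ker.1 (h.val_mem _), one_mul, h.lift]
  refine ⟨L', hL', ?_⟩
  simp only [Cert.shapeOK, Bool.and_eq_true, List.all_eq_true, List.any_eq_true, Bool.or_eq_true,
    decide_eq_true_eq, List.mem_range, beq_iff_eq] at h3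
  obtain ⟨h3a, h3b⟩ := h3
  have hbas : ∀ x ∈ C.basis, val L C x.1 = 1 := by
    intro x hx
    have hb := List.all_eq_true.1 h2 x hx
    simp only [Bool.or_eq_true, beq_iff_eq] at hb
    rcases hb with (e | e) | e
    · rw [e]; exact hl1
    · rw [e]; exact hl2
    · split at e
      · exact absurd e (by simp)
      rename_i P hP
      rw [← beq_iff_eq.1 e]
      exact h.loop_one (List.all_eq_true.1 h1 P (List.mem_of_getElem? hP))
  have hrel : ∀ r < N, ∀ a b, C.rules[r]? = some (a, b) → wp L' a = wp L' b := by
    intro r hr a b hab
    have ht := List.all_eq_true.1 h4 r (List.mem_range.2 hr)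
    rw [hab] at ht
    simp only [beq_iff_eq] at ht
    obtain ⟨hlt, he⟩ := List.getElem?_eq_some_iff.1 hab
    have hv := congrArg (val L C) ht
    rw [h.val_sel _ _ hbas, h.val_xor, h.val_xor, h.val_pow hlt, rel,
      List.getD_eq_getElem _ _ hlt, he] at hv
    simp only at hv
    have e : wp L' a * (wp L' b)⁻¹ =
        val L C (gauge C.R a) * val L C (gauge C.R b) * (wp L a * (wp L b)⁻¹) := by
      simp only [L', h.wp_gauge, mul_inv_rev]
      rw [inv_eq_of_mul_eq_one_left (h.expo _ (h.val_mem (gauge C.R b)))]
      calc val L C (gauge C.R a) * wp L a * ((wp L b)⁻¹ * val L C (gauge C.R b))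
          = val L C (gauge C.R a) * ((wp L a * (wp L b)⁻¹) * val L C (gauge C.R b)) := by group
        _ = val L C (gauge C.R a) * (val L C (gauge C.R b) * (wp L a * (wp L b)⁻¹)) := by
            rw [h.comm (h.val_mem _)]
        _ = _ := by group
    exact mul_inv_eq_one.1 (e.trans hv)
  have hS : ∀ i < m, L' i * L' i = 1 := fun i hi => by
    obtain ⟨r, hr, he⟩ := (h3b i hi).1
    simpa [wp] using hrel r hr _ _ he
  have hmain : ∀ d ≤ m, Nat.card (Subgroup.closure (L' '' {l | m - d ≤ l ∧ l < m})) ≤ 2 ^ d := by
    intro d
    induction d with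
    | zero =>
      intro _
      rw [show {l : ℕ | m - 0 ≤ l ∧ l < m} = ∅ by ext; simp, Set.image_empty,
        Subgroup.closure_empty, Subgroup.card_bot, pow_zero]
    | succ d ih =>
      intro hd
      set i := m - (d + 1) with hi
      have hset : L' '' {l : ℕ | i ≤ l ∧ l < m} =
          insert (L' i) (L' '' {l : ℕ | m - d ≤ l ∧ l < m}) := by
        rw [← Set.image_insert_eq]
        congr 1
        ext l
        simp only [Set.mem_ofPred_eq, Set.mem_insert_iff]
        omega
      rw [hset, pow_succ']
      refine (SchurSylow.card_closure_insert_le (hS i (by omega)) ?_).trans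
        (Nat.mul_le_mul_left 2 (ih (by omega)))
      rintro _ ⟨j, ⟨hj1, hj2⟩, rfl⟩
      obtain hle | ⟨r, hr, he⟩ := (h3b i (by omega)).2 j hj2
      · omega
      split at he
      · exact absurd he (by simp)
      rename_i a b hab
      simp only [Bool.and_eq_true, beq_iff_eq, List.all_eq_true, decide_eq_true_eq] at he
      obtain ⟨⟨rfl, hhead⟩, htail⟩ := he
      have hb : b = i :: b.tail := (List.cons_head?_tail hhead).symm
      have hh := hrel r hr _ _ hab
      rw [hb] at hh
      simp only [wp, List.map_cons, List.map_nil, List.prod_cons, List.prod_nil, mul_one] at hh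
      have hval : L' i * L' j * L' i = wp L' b.tail := by
        rw [mul_assoc, hh, ← mul_assoc, hS i (by omega), one_mul]
        rfl
      rw [hval]
      refine Subgroup.list_prod_mem _ fun y hy => ?_
      obtain ⟨x, hx, rfl⟩ := List.mem_map.1 hy
      have hlt := h3a r hr
      rw [hab] at hlt
      simp only [List.all_eq_true, decide_eq_true_eq, List.mem_append] at hlt
      exact Subgroup.subset_closure ⟨x, ⟨by have := htail x hx; omega,
        hlt x (Or.inr (List.mem_of_mem_tail hx))⟩, rfl⟩
  have := hmain m le_rfl
  simpa using this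

end Cfsg.Agent.FGS4.CentralExt
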