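import Cfsg.Agent.FGS4.CentralExt.Engine
import Cfsg.Agent.FGS4.CentralExt.L34Data
import Cfsg.Agent.FGS2.M21
import Cfsg.Agent.S0380

/-!
# Perfect central extensions of `PSL₃(4)` with kernel of exponent two have kernel of order at most four
-/

set_option autoImplicit false
set_option maxRecDepth 100000

namespace Cfsg.Agent.FGS4.CentralExt

open Cfsg Cfsg.Agent.Golay
open scoped Pointwise commutatorElement

universe u v

/-- A perfect central extension with kernel of exponent two is no larger than the forms left free. -/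
theorem card_ker_le_four {E : Type u} [Group E] [Finite E] {G : Type v} [Group G] [Finite G]
    {C : Cert} {γ : ℕ → G} {m N : ℕ} (π : E →* G) (hsurj : Function.Surjective π)
    (hperf : commutator E = ⊤) (hc : π.ker ≤ Subgroup.center E) (he : ∀ a ∈ π.ker, a * a = 1)
    (h1 : C.loopsOK = true) (h2 : C.basisOK = true) (h3 : C.shapeOK m N = true)
    (h4 : C.targetOK N = true) (hrule : ∀ ab ∈ C.rules, wp γ ab.1 = wp γ ab.2)
    (hbig : 2 ^ m ≤ Nat.card (Subgroup.closure (γ '' {l | l < m})))
    (hodd : ∀ H : Subgroup G, Nat.card H = 2 ^ m → Odd H.index) :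
    Nat.card π.ker ≤ 4 := by
  classical
  choose L hL using fun l => hsurj (γ l)
  have hyp : Hyp π γ L C := ⟨hL, hrule, hc, he⟩
  set a := val L C C.lam₁
  set b := val L C C.lam₂
  have ha : a ∈ π.ker := hyp.val_mem _
  have hb : b ∈ π.ker := hyp.val_mem _
  set W0 := Subgroup.closure ({a, b} : Set E)
  have hW : W0 ≤ π.ker := by
    rw [Subgroup.closure_le]
    rintro x (rfl | rfl)
    exacts [ha, hb]
  have hW4 : Nat.card W0 ≤ 4 := by
    refine (SchurSylow.card_closure_insert_le (he a ha) ?_).trans ?_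
    · rintro x rfl
      rw [hyp.comm hb a, mul_assoc, he a ha, mul_one]
      exact Subgroup.subset_closure rfl
    · have hb2 : Nat.card (Subgroup.closure ({b} : Set E)) ≤ 2 := by
        rw [← Subgroup.zpowers_eq_closure, Nat.card_zpowers]
        exact orderOf_le_of_pow_eq_one (by norm_num) (by rw [pow_two]; exact he b hb)
      omega
  haveI hWn : W0.Normal := ⟨fun x hx g => by
    rw [hyp.comm (hW hx) g, mul_assoc, mul_inv_cancel, mul_one]; exact hx⟩
  set q := QuotientGroup.mk' W0
  let π' : E ⧸ W0 →* G := QuotientGroup.lift W0 π hW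
  have hπ' : ∀ x : E, π' (q x) = π x := fun x => rfl
  have hker : ∀ z : E ⧸ W0, z ∈ π'.ker → ∃ x ∈ π.ker, q x = z := by
    intro z hz
    obtain ⟨x, rfl⟩ := QuotientGroup.mk_surjective z
    exact ⟨x, hz, rfl⟩
  have hwp : ∀ w, wp (fun l => q (L l)) w = q (wp L w) := fun w => by
    simp [wp, map_list_prod, List.map_map, Function.comp_def]
  have hyp' : Hyp π' γ (fun l => q (L l)) C := by
    refine ⟨hL, hrule, fun z hz => ?_, fun z hz => ?_⟩
    · obtain ⟨x, hx, rfl⟩ := hker z hz
      refine Subgroup.mem_center_iff.2 fun y => ?_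
      obtain ⟨y, rfl⟩ := QuotientGroup.mk_surjective y
      show q y * q x = q x * q y
      rw [← map_mul, hyp.comm hx, map_mul]
    · obtain ⟨x, hx, rfl⟩ := hker z hz
      rw [← map_mul, he x hx, map_one]
  have hval : ∀ k, val (fun l => q (L l)) C k = q (val L C k) := fun k => by
    simp only [val, map_list_prod, List.map_map]
    refine congrArg List.prod (List.map_congr_left fun i _ => ?_)
    simp only [Function.comp_apply]
    split
    · simp [rel, hwp]
    · rw [map_one]
  have hone : ∀ x ∈ ({a, b} : Set E), q x = 1 := fun x hx =>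
    (QuotientGroup.eq_one_iff x).2 (Subgroup.subset_closure hx)
  obtain ⟨L', hL', hle⟩ := hyp'.exists_lifts m N h1 h2 h3 h4
    ((hval _).trans (hone a (Or.inl rfl))) ((hval _).trans (hone b (Or.inr rfl)))
  set H0 := Subgroup.closure (L' '' {l | l < m})
  set P := Subgroup.closure (γ '' {l | l < m})
  have hmap : H0.map π' = P := by
    rw [MonoidHom.map_closure]
    congr 1
    rw [← Set.image_comp]
    exact Set.image_congr fun l _ => hL' l
  let f : H0 → P := fun x => ⟨π' x.1, hmap ▸ Subgroup.mem_map_of_mem _ x.2⟩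
  have hfsurj : Function.Surjective f := fun y => by
    obtain ⟨x, hx, e⟩ : y.1 ∈ H0.map π' := hmap.symm ▸ y.2
    exact ⟨⟨x, hx⟩, Subtype.ext e⟩
  have hcard : Nat.card H0 = Nat.card P :=
    le_antisymm (hle.trans hbig) (Nat.card_le_card_of_surjective f hfsurj)
  have hP : Nat.card P = 2 ^ m := le_antisymm (hcard ▸ hle) hbig
  have hinj : Function.Injective f :=
    ((Nat.bijective_iff_surjective_and_card f).2 ⟨hfsurj, hcard⟩).1
  have hHK : H0 ⊓ π'.ker = ⊥ := by
    rw [eq_bot_iff]
    rintro x ⟨hx, hk⟩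
    have := @hinj ⟨x, hx⟩ 1 (Subtype.ext (by simpa [f] using hk))
    exact congrArg Subtype.val this
  haveI : IsMulCommutative π'.ker :=
    ⟨⟨fun x y => Subtype.ext (hyp'.comm y.2 x.1)⟩⟩
  have hU : π'.ker ⊔ H0 = P.comap π' := by rw [← hmap, Subgroup.comap_map_eq, sup_comm]
  have hsurj' : Function.Surjective π' := fun g => by
    obtain ⟨x, rfl⟩ := hsurj g
    exact ⟨q x, rfl⟩
  haveI : Fact (Nat.Prime 2) := ⟨Nat.prime_two⟩
  obtain ⟨k, hk⟩ := (IsPGroup.iff_card (p := 2) (G := π'.ker)).1 fun x =>
    ⟨1, Subtype.ext (by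
      show (x.1 : E ⧸ W0) ^ (2 ^ 1) = 1
      rw [pow_one, pow_two]; exact hyp'.expo _ x.2)⟩
  obtain ⟨H, hH⟩ := LocalEven.gaschutz_exists π'.ker (P.comap π')
    (hU ▸ le_sup_left) (by
      rw [hk, Subgroup.index_comap_of_surjective P hsurj']
      exact Nat.Coprime.pow_left k ((Nat.coprime_two_left).2 (hodd P hP)))
    H0 (hU ▸ le_sup_right) hHK hU
  have hmul : ∀ z : E ⧸ W0, ∃ n ∈ π'.ker, ∃ h ∈ H, n * h = z := fun z => by
    have hz : z ∈ (π'.ker : Set (E ⧸ W0)) * (H : Set (E ⧸ W0)) := by
      rw [hH.mul_eq]; exact Set.mem_univ z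
    obtain ⟨n, hn, h, hh, e⟩ := Set.mem_mul.1 hz
    exact ⟨n, hn, h, hh, e⟩
  have hcomm : commutator (E ⧸ W0) ≤ H := by
    rw [commutator_def, Subgroup.commutator_le]
    intro x _ y _
    obtain ⟨n, hn, h, hh, rfl⟩ := hmul x
    obtain ⟨n', hn', h', hh', rfl⟩ := hmul y
    have e : ⁅n * h, n' * h'⁆ = ⁅h, h'⁆ := by
      simp only [commutatorElement_def, mul_inv_rev]
      calc n * h * (n' * h') * (h⁻¹ * n⁻¹) * (h'⁻¹ * n'⁻¹)
          = n * (h * n') * h' * h⁻¹ * (n⁻¹ * h'⁻¹) * n'⁻¹ := by group
        _ = n * (n' * h) * h' * h⁻¹ * (h'⁻¹ * n⁻¹) * n'⁻¹ := by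
            rw [hyp'.comm hn', hyp'.comm (inv_mem hn)]
        _ = (n * n') * (h * h' * h⁻¹ * h'⁻¹) * (n⁻¹ * n'⁻¹) := by group
        _ = (h * h' * h⁻¹ * h'⁻¹) * (n * n') * (n⁻¹ * n'⁻¹) := by
            rw [hyp'.comm (mul_mem hn hn')]
        _ = h * h' * h⁻¹ * h'⁻¹ := by rw [← hyp'.comm hn n']; group
    rw [e]
    exact mul_mem (mul_mem (mul_mem hh hh') (inv_mem hh)) (inv_mem hh')
  have htop : commutator (E ⧸ W0) = ⊤ := by
    rw [commutator_def] at hperf ⊢
    rw [← Subgroup.map_top_of_surjective q (QuotientGroup.mk'_surjective W0),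
      ← Subgroup.map_commutator, hperf]
  have hbot : π'.ker = ⊥ := by
    have := disjoint_iff.1 hH.disjoint
    have hH1 : H = ⊤ := eq_top_iff.2 (htop ▸ hcomm)
    rwa [hH1, inf_top_eq] at this
  have hle' : π.ker ≤ W0 := fun x hx => by
    have : q x ∈ π'.ker := hx
    rw [hbot, Subgroup.mem_bot] at this
    exact (QuotientGroup.eq_one_iff x).1 this
  exact (Nat.card_le_card_of_injective _ (Subgroup.inclusion_injective hle')).trans hW4

namespace L34

/-- The stabiliser of three points in `M₂₄`. -/
abbrev S21 : Subgroup (Equiv.Perm GolayPt) := FGS2.M21.stab3 (pt 21) (pt 22) (pt 23)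

/-- A code of an element of the stabiliser. -/
def okCode (c : ℕ) : Bool := isAut c && app c 21 == 21 && app c 22 == 22 && app c 23 == 23

theorem permOf_mem {c : ℕ} (h : okCode c = true) : permOf c ∈ S21 := by
  simp only [okCode, Bool.and_eq_true, beq_iff_eq] at h
  obtain ⟨⟨⟨h1, h2⟩, h3⟩, h4⟩ := h
  have hok := permOK_of_isAut h1
  have hfix : ∀ i < 24, app c i = i → permOf c • pt i = pt i := fun i hi e => idx_injective (by
    rw [Equiv.Perm.smul_def, idx_permOf hok, idx_pt hi, e])
  exact ⟨⟨⟨permOf_mem_M24 h1, hfix 21 (by norm_num) h2⟩, hfix 22 (by norm_num) h3⟩,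
    hfix 23 (by norm_num) h4⟩

/-- The element of a code. -/
noncomputable def elt (c : ℕ) : S21 := if h : okCode c = true then ⟨permOf c, permOf_mem h⟩ else 1

/-- The letters. -/
noncomputable def gam (l : ℕ) : S21 := elt (letters.getD l 0)

/-- The image of an index under a word in the letters. -/
def evalL (w : List ℕ) (i : ℕ) : ℕ := w.foldr (fun x j => app (letters.getD x 0) j) i

theorem letters_ok : (letters.all okCode && cert.rules.all fun r =>
    ((r.1 ++ r.2).all fun x => decide (x < letters.length)) &&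
      (List.range 24).all fun i => evalL r.1 i == evalL r.2 i) = true := by decide +kernel

theorem ok_getD {x : ℕ} (hx : x < letters.length) : okCode (letters.getD x 0) = true := by
  have h := letters_ok
  simp only [Bool.and_eq_true, List.all_eq_true] at h
  exact h.1 _ (List.getD_eq_getElem letters 0 hx ▸ List.getElem_mem hx)

theorem idx_wp : ∀ w : List ℕ, (∀ x ∈ w, x < letters.length) → ∀ p,
    idx (((wp gam w : S21) : Equiv.Perm GolayPt) p) = evalL w (idx p)
  | [], _, p => rfl
  | x :: w, hw, p => by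
    have hc := ok_getD (hw x (List.mem_cons_self ..))
    have ih := idx_wp w (fun y hy => hw y (List.mem_cons_of_mem _ hy)) p
    have hok : permOK (letters.getD x 0) = true := by
      simp only [okCode, Bool.and_eq_true] at hc; exact permOK_of_isAut hc.1.1.1
    simp only [wp, List.map_cons, List.prod_cons] at ih ⊢
    rw [Subgroup.coe_mul, Equiv.Perm.mul_apply, gam, elt, dif_pos hc, idx_permOf hok, ih]
    rfl

theorem gam_rel : ∀ ab ∈ cert.rules, wp gam ab.1 = wp gam ab.2 := by
  intro ab hab
  have h := letters_ok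
  simp only [Bool.and_eq_true, List.all_eq_true, decide_eq_true_eq, beq_iff_eq, List.mem_range,
    List.mem_append] at h
  obtain ⟨hlt, he⟩ := h.2 ab hab
  refine Subtype.ext (Equiv.ext fun p => idx_injective ?_)
  rw [idx_wp _ (fun x hx => hlt x (Or.inl hx)), idx_wp _ (fun x hx => hlt x (Or.inr hx))]
  exact he _ (idx_lt p)

/-- The word of a bit pattern. -/
def bitWord (n : ℕ) : List ℕ := (List.range 6).filter fun i => n.testBit i

/-- A fingerprint of a word. -/
def wordKey (w : List ℕ) : ℕ := (List.range 24).foldr (fun i acc => evalL w i + 32 * acc) 0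

theorem keys_nodup : ((List.range 64).map fun n => wordKey (bitWord n)).Nodup := by decide +kernel

theorem gam_big : 2 ^ 6 ≤ Nat.card (Subgroup.closure (gam '' {l | l < 6})) := by
  have hw : ∀ n, wp gam (bitWord n) ∈ Subgroup.closure (gam '' {l | l < 6}) := fun n =>
    Subgroup.list_prod_mem _ fun x hx => by
      obtain ⟨i, hi, rfl⟩ := List.mem_map.1 hx
      exact Subgroup.subset_closure ⟨i, List.mem_range.1 (List.mem_filter.1 hi).1, rfl⟩
  refine le_trans (by norm_num) ((Nat.card_fin 64).symm.le.trans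
    (Nat.card_le_card_of_injective (fun n : Fin 64 => ⟨_, hw n.1⟩) fun a b hab => ?_))
  have hab' := congrArg Subtype.val hab
  have hlen : ∀ n, ∀ x ∈ bitWord n, x < letters.length := fun n x hx => by
    have := List.mem_range.1 (List.mem_filter.1 hx).1
    have h8 : letters.length = 8 := rfl
    omega
  have hk : wordKey (bitWord a) = wordKey (bitWord b) := by
    unfold wordKey
    refine List.foldr_ext _ _ _ fun i hi acc => ?_
    have hi' := List.mem_range.1 hi
    have e1 := idx_wp _ (hlen a.1) (pt i)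
    have e2 := idx_wp _ (hlen b.1) (pt i)
    rw [idx_pt hi'] at e1 e2
    simp only at hab'
    rw [hab'] at e1
    rw [← e1, ← e2]
  apply Fin.ext
  exact List.inj_on_of_nodup_map keys_nodup (List.mem_range.2 a.2) (List.mem_range.2 b.2) hk

theorem card_S21 : Nat.card S21 = 20160 :=
  M24_stab3_card (by decide) (by decide) (by decide)

/-- Perfect central extensions of `PSL₃(4)` with kernel of exponent two have kernel of order at most four. -/
theorem card_ker_le {E : Type u} [Group E] [Finite E] {F : Type v} [Field F] [Fintype F]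
    (hF : Fintype.card F = 4) (π : E →* Matrix.ProjectiveSpecialLinearGroup (Fin 3) F)
    (hsurj : Function.Surjective π) (hperf : commutator E = ⊤)
    (hc : π.ker ≤ Subgroup.center E) (he : ∀ a ∈ π.ker, a * a = 1) : Nat.card π.ker ≤ 4 := by
  classical
  have hcard : Nat.card (Matrix.ProjectiveSpecialLinearGroup (Fin 3) FGS2.M21.Q4) = 20160 := by
    have h := Linear.card_PSL (F := FGS2.M21.Q4) 3
    rw [FGS2.M21.Q4.card_eq, show Nat.gcd 3 (4 - 1) = 3 by decide, Fin.prod_univ_three] at h
    norm_num at h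
    rw [Nat.card_eq_fintype_card]
    omega
  have e4 : FGS2.M21.Q4 ≃+* F := FiniteField.ringEquivOfCardEq (by rw [FGS2.M21.Q4.card_eq, hF])
  let iso : Matrix.ProjectiveSpecialLinearGroup (Fin 3) F ≃* S21 :=
    (Linear.pslCongr e4).symm.trans <| (QuotientGroup.quotientMulEquivOfEq FGS2.M21.ker_eq.symm).trans <|
      (QuotientGroup.quotientKerEquivRange _).trans <|
        MulEquiv.subgroupCongr (FGS2.M21.range_eq hcard)
  have hk : (iso.toMonoidHom.comp π).ker = π.ker := by
    ext x
    simp
  rw [← hk] at hc he ⊢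
  refine card_ker_le_four (C := cert) (m := 6) (N := 21) (iso.toMonoidHom.comp π) (iso.surjective.comp hsurj) hperf
    hc he (by decide +kernel) (by decide +kernel) (by decide +kernel) (by decide +kernel) gam_rel
    gam_big fun H hH => ?_
  have h := H.card_mul_index
  rw [hH, card_S21] at h
  exact ⟨157, by omega⟩

end L34

end Cfsg.Agent.FGS4.CentralExt
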